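import Cfsg.Agent.H914.XR.HullC
import Cfsg.Agent.H16.XZ.Irr

/-!
# S4791 + S4927: similitudes which commute with a `p`-group of isometries (helper563, for helper914 and helper668)

`P` a `p`-subgroup of `O Q`, `p` odd and not the characteristic.

* `exists_norm` : the norm of a finite field with an involution is surjective onto the fixed field;
* `exists_sim_irr` : an irreducible nondegenerate block has similitudes with every multiplier, commuting with `P`;
* `exists_sim_all` : the same on `V`, for the multiplier of a similitude which stabilises `C_V(P)`;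
* `act_of_sim'` : every similitude acts on the image of `T` in `P Q` as an element of `P Q`.
-/

set_option autoImplicit false
set_option linter.unusedSectionVars false

namespace Cfsg.Agent.H563.XZ

open QuadraticMap Module Polynomial Cfsg.Agent.LieClassical.OrthCore Cfsg.Agent.LieClassical.OrthTrans
  Cfsg.Agent.LieClassical.OrthSimple Cfsg.Agent.ClassicalGeometry.OrthSemi
  Cfsg.Agent.ClassicalGeometry.OrthSemiCount Cfsg.Agent.ClassicalGeometry.OrthAut1
  Cfsg.Agent.H989.OutOrth.Basic Cfsg.Agent.H324.AP Cfsg.Agent.H914.XR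

section norm

universe u

/-- the norm of a finite field with an involution is surjective onto the fixed field -/
theorem exists_norm {K : Type u} [Field K] [Finite K] (σ : K →+* K) (h2 : ∀ x, σ (σ x) = x) (hne : ∃ x, σ x ≠ x)
    {c : K} (hc : σ c = c) (hc0 : c ≠ 0) : ∃ k : K, k * σ k = c := by
  classical
  let s : Kˣ →* Kˣ := Units.map (σ : K →* K)
  have hs : ∀ u : Kˣ, ((s u : Kˣ) : K) = σ u := fun u => rfl
  have hss : ∀ u : Kˣ, s (s u) = u := fun u => Units.ext (h2 _)
  let N : Kˣ →* Kˣ :=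
    { toFun := fun u => u * s u
      map_one' := by rw [map_one, mul_one]
      map_mul' := fun a b => by rw [map_mul]; exact mul_mul_mul_comm _ _ _ _ }
  let H : Kˣ →* Kˣ :=
    { toFun := fun u => u * (s u)⁻¹
      map_one' := by rw [map_one, inv_one, mul_one]
      map_mul' := fun a b => by rw [map_mul, mul_inv]; exact mul_mul_mul_comm _ _ _ _ }
  have hN : ∀ u, N u = u * s u := fun _ => rfl
  have hH : ∀ u, H u = u * (s u)⁻¹ := fun _ => rfl
  -- Hilbert 90
  have h90 : N.ker ≤ H.range := by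
    intro u hu
    rw [MonoidHom.mem_ker, hN] at hu
    have hu' : (u : K) * σ u = 1 := by
      have h3 := congrArg (fun x : Kˣ => (x : K)) hu
      exact h3
    obtain ⟨t, ht⟩ : ∃ t : K, t + u * σ t ≠ 0 := by
      by_contra hcon
      push Not at hcon
      obtain ⟨x, hx⟩ := hne
      have h3 := hcon 1
      have h4 := hcon x
      rw [map_one, mul_one] at h3
      have h5 : (u : K) = -1 := by
        rw [add_comm] at h3
        exact eq_neg_of_add_eq_zero_left h3
      rw [h5] at h4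
      apply hx
      linear_combination -h4
    refine ⟨Units.mk0 _ ht, ?_⟩
    rw [hH, mul_inv_eq_iff_eq_mul]
    apply Units.ext
    rw [Units.val_mul, hs, Units.val_mk0, map_add, map_mul, h2, mul_add, ← mul_assoc, hu']
    ring
  have hNH : N.range ≤ H.ker := by
    rintro _ ⟨u, rfl⟩
    rw [MonoidHom.mem_ker, hH, hN, map_mul, hss, mul_comm (s u) u, mul_inv_cancel]
  have hle : Nat.card H.ker ≤ Nat.card N.range := by
    have e1 := N.ker.card_mul_index
    have e2 := H.ker.card_mul_index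
    rw [Subgroup.index_ker] at e1 e2
    have h3 : Nat.card N.ker ≤ Nat.card H.range := Subgroup.card_le_of_le h90
    have h4 : 0 < Nat.card H.range := Nat.card_pos
    have h5 : Nat.card H.ker * Nat.card H.range ≤ Nat.card N.range * Nat.card H.range := by
      rw [e2, ← e1, mul_comm]
      exact Nat.mul_le_mul_left _ h3
    exact Nat.le_of_mul_le_mul_right h5 h4
  have heq := Subgroup.eq_of_le_of_card_ge hNH hle
  have hcm : Units.mk0 c hc0 ∈ H.ker := by
    rw [MonoidHom.mem_ker, hH]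
    have h3 : s (Units.mk0 c hc0) = Units.mk0 c hc0 := Units.ext hc
    rw [h3, mul_inv_cancel]
  rw [← heq] at hcm
  obtain ⟨k, hk⟩ := hcm
  refine ⟨k, ?_⟩
  have h3 := congrArg (fun x : Kˣ => (x : K)) hk
  exact h3

end norm

universe u v

variable {F : Type u} {V : Type v} [Field F] [AddCommGroup V] [Module F V] {Q : QuadraticForm F V}

/-- **(U1)**: an irreducible nondegenerate block -/
theorem exists_sim_irr [Finite F] [Finite V] (hQ : Nondeg Q) {p : ℕ} [Fact p.Prime] (hp2 : p ≠ 2) (_hpF : (p : F) ≠ 0)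
    {P : Subgroup (V ≃ₗ[F] V)} (hP : IsPGroup p P) (hPO : P ≤ O Q) {D : Submodule F V} (hi : Irr P D)
    (hn : ND (fun u v => polar Q u v) D) (hfix : ∀ u ∈ D, u ∈ fixP P → u = 0) {c : F} (hc : c ≠ 0) :
    ∃ z : V →ₗ[F] V, (∀ v ∈ D, z v ∈ D ∧ Q (z v) = c * Q v) ∧ ∀ g ∈ P, ∀ v ∈ D, z (g v) = g (z v) := by
  classical
  have h := splF hQ
  obtain ⟨z, hz, hzc, d₀, hd₀, hzd₀⟩ := H16.XZ.exists_central hP hi.inv hi.ne hfix
  let TD : Module.End F D := (z : V →ₗ[F] V).restrict (fun d hd => hi.inv z hz d hd)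
  have hTD : ∀ (n : ℕ) (d : D), (((TD ^ n) d : D) : V) = (z ^ n) d := by
    intro n
    induction n with
    | zero => intro d; rfl
    | succ n ih =>
      intro d
      rw [pow_succ', Module.End.mul_apply, pow_succ', LinearEquiv.mul_apply, ← ih]
      rfl
  -- the order of `z`
  obtain ⟨m, hm⟩ := hP ⟨z, hz⟩
  have hzN : z ^ (p ^ m) = 1 := congrArg Subtype.val hm
  set N := p ^ m with hN
  have hN1 : 1 ≤ N := Nat.one_le_pow _ _ (Fact.out : p.Prime).pos
  have hTN : TD ^ N = 1 := by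
    ext d
    rw [hTD, hzN]
    rfl
  -- commutation with `P`
  have hcomm : ∀ g ∈ P, ∀ (n : ℕ), ∀ d ∈ D, g ((z ^ n) d) = (z ^ n) (g d) := by
    intro g hg n
    induction n with
    | zero => intro d _; rfl
    | succ n ih =>
      intro d hd
      rw [pow_succ', LinearEquiv.mul_apply, LinearEquiv.mul_apply, ← ih d hd,
        hzc g hg _ (hi.inv _ (P.pow_mem hz n) d hd)]
  have hcoeP : ∀ (g : F[X]) (x : V ≃ₗ[F] V) (hx : x ∈ P) (d : D),
      ((aeval TD g ⟨x d, hi.inv x hx d d.2⟩ : D) : V) = x (aeval TD g d : D) := by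
    intro g x hx d
    induction g using Polynomial.induction_on' with
    | add f g hf hg =>
      rw [map_add, LinearMap.add_apply, LinearMap.add_apply, Submodule.coe_add, Submodule.coe_add, hf, hg, map_add]
    | monomial n a =>
      rw [aeval_monomial, Module.End.mul_apply, Module.End.mul_apply, Module.algebraMap_end_apply,
        Module.algebraMap_end_apply, Submodule.coe_smul, Submodule.coe_smul, map_smul, hTD, hTD, hcomm x hx n d d.2]
  -- the minimal polynomial is irreducible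
  have hint : IsIntegral F TD := Algebra.IsIntegral.isIntegral TD
  set f := minpoly F TD with hf
  have hkey : ∀ g h : F[X], aeval TD (g * h) = 0 → aeval TD g = 0 ∨ aeval TD h = 0 := by
    intro g k hgk
    let W : Submodule F V := (LinearMap.ker (aeval TD g)).map D.subtype
    have hWD : W ≤ D := Submodule.map_subtype_le D _
    have hWi : Inv P W := by
      rintro x hx _ ⟨d, hd, rfl⟩
      refine ⟨⟨x d, hi.inv x hx d d.2⟩, ?_, rfl⟩
      have h1 := hcoeP g x hx d
      rw [SetLike.mem_coe, LinearMap.mem_ker] at hd ⊢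
      rw [hd, Submodule.coe_zero, map_zero] at h1
      exact Subtype.ext h1
    rcases hi.min W hWD hWi with h1 | h1
    · right
      ext d
      have h2 : ((aeval TD k d : D) : V) ∈ W := by
        refine ⟨_, ?_, rfl⟩
        rw [SetLike.mem_coe, LinearMap.mem_ker, ← Module.End.mul_apply, ← map_mul, hgk, LinearMap.zero_apply]
      rw [h1] at h2
      exact (Submodule.mem_bot F).1 h2
    · left
      ext d
      have h2 : (d : V) ∈ W := by rw [h1]; exact d.2
      obtain ⟨d', hd', he⟩ := h2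
      have h3 : d' = d := Subtype.ext he
      rw [h3] at hd'
      exact congrArg Subtype.val (LinearMap.mem_ker.1 hd')
  have hnt : Nontrivial D := by
    refine ⟨⟨⟨d₀, hd₀⟩, 0, ?_⟩⟩
    intro h0
    apply hzd₀
    have h1 : d₀ = 0 := congrArg Subtype.val h0
    rw [h1, map_zero]
  have hirr : Irreducible f := by
    refine ⟨minpoly.not_isUnit F TD, fun g k hgk => ?_⟩
    have hg0 : aeval TD (g * k) = 0 := by rw [← hgk]; exact minpoly.aeval F TD
    have hf0 : f ≠ 0 := minpoly.ne_zero hint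
    rcases hkey g k hg0 with h1 | h1
    · right
      obtain ⟨c, hc⟩ := minpoly.dvd F TD h1
      rw [← hf] at hc
      have h2 : f * (c * k) = f * 1 := by rw [mul_one, ← mul_assoc, ← hc, ← hgk]
      exact IsUnit.of_mul_eq_one c (by rw [mul_comm]; exact mul_left_cancel₀ hf0 h2)
    · left
      obtain ⟨c, hc⟩ := minpoly.dvd F TD h1
      rw [← hf] at hc
      have h2 : f * (c * g) = f * 1 := by rw [mul_one, ← mul_assoc, ← hc, mul_comm k g, ← hgk]
      exact IsUnit.of_mul_eq_one c (by rw [mul_comm]; exact mul_left_cancel₀ hf0 h2)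
  -- the adjoint
  have hadj : ∀ (g : F[X]) (u v : D), polar Q (aeval TD g u : D) v = polar Q u (aeval (TD ^ (N - 1)) g v : D) := by
    intro g u v
    induction g using Polynomial.induction_on' with
    | add f g hf hg =>
      rw [map_add, map_add, LinearMap.add_apply, LinearMap.add_apply, Submodule.coe_add, Submodule.coe_add,
        polar_add_left, polar_add_right, hf, hg]
    | monomial n a =>
      rw [aeval_monomial, aeval_monomial, Module.End.mul_apply, Module.End.mul_apply, Module.algebraMap_end_apply,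
        Module.algebraMap_end_apply, Submodule.coe_smul, Submodule.coe_smul, polar_smul_left, polar_smul_right,
        ← pow_mul, hTD, hTD]
      congr 1
      rw [← polar_map (hPO (P.pow_mem hz ((N - 1) * n))) ((z ^ n) u) v, ← LinearEquiv.mul_apply, ← pow_add]
      congr 1
      have h1 : (N - 1) * n + n = N * n := by
        obtain ⟨k, hk⟩ := Nat.exists_eq_add_of_le hN1
        rw [hk]
        simp only [Nat.add_sub_cancel_left]
        ring
      rw [h1, pow_mul, hzN, one_pow]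
      rfl
  have hfadj : aeval (TD ^ (N - 1)) f = 0 := by
    ext v
    refine hn _ (aeval (TD ^ (N - 1)) f v : D).2 fun u hu => ?_
    have h1 := hadj f ⟨u, hu⟩ v
    rw [minpoly.aeval] at h1
    show polar Q _ u = 0
    rw [polar_comm, ← h1]
    exact polar_zero_left Q _
  -- the field
  have hfact : Fact (Irreducible f) := ⟨hirr⟩
  have hKfin : Module.Finite F (AdjoinRoot f) := (AdjoinRoot.powerBasis hirr.ne_zero).finite
  have hKf : Finite (AdjoinRoot f) := Module.finite_of_finite F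
  have hev : f.eval₂ (Algebra.ofId F (AdjoinRoot f)) (AdjoinRoot.root f ^ (N - 1)) = 0 := by
    have h1 : f ∣ expand F (N - 1) f := by
      apply minpoly.dvd
      rw [expand_aeval]
      exact hfadj
    have h2 : aeval (AdjoinRoot.root f) (expand F (N - 1) f) = 0 := by
      rw [AdjoinRoot.aeval_eq, AdjoinRoot.mk_eq_zero]
      exact h1
    rw [expand_aeval] at h2
    exact h2
  let σ : AdjoinRoot f →ₐ[F] AdjoinRoot f := AdjoinRoot.liftAlgHom f (Algebra.ofId F _) (AdjoinRoot.root f ^ (N - 1)) hev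
  have hσ : σ (AdjoinRoot.root f) = AdjoinRoot.root f ^ (N - 1) := AdjoinRoot.liftAlgHom_root _ _ _ _
  have hσmk : ∀ g : F[X], σ (AdjoinRoot.mk f g) = AdjoinRoot.mk f (expand F (N - 1) g) := by
    intro g
    rw [← AdjoinRoot.aeval_eq, ← AdjoinRoot.aeval_eq, expand_aeval, ← hσ]
    exact (aeval_algHom_apply σ (AdjoinRoot.root f) g).symm
  have hrN : AdjoinRoot.root f ^ N = 1 := by
    have h1 : f ∣ X ^ N - 1 := by
      apply minpoly.dvd
      rw [map_sub, map_pow, aeval_X, hTN, map_one, sub_self]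
    have h2 := AdjoinRoot.mk_eq_zero.2 h1
    rw [map_sub, map_pow, AdjoinRoot.mk_X, map_one, sub_eq_zero] at h2
    exact h2
  have hr0 : AdjoinRoot.root f ≠ 0 := by
    intro h1
    rw [h1, zero_pow (by omega)] at hrN
    exact zero_ne_one hrN
  have hr1 : AdjoinRoot.root f ≠ 1 := by
    intro h1
    have h2 : AdjoinRoot.mk f (X - 1) = 0 := by
      rw [map_sub, AdjoinRoot.mk_X, map_one, h1, sub_self]
    obtain ⟨c, hc⟩ := AdjoinRoot.mk_eq_zero.1 h2
    have h3 : aeval TD (X - 1 : F[X]) = 0 := by rw [hc, map_mul, minpoly.aeval, zero_mul]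
    rw [map_sub, aeval_X, map_one, sub_eq_zero] at h3
    apply hzd₀
    have h4 := congrArg (fun t : Module.End F D => ((t ⟨d₀, hd₀⟩ : D) : V)) h3
    exact h4
  have hinv : AdjoinRoot.root f ^ (N - 1) = (AdjoinRoot.root f)⁻¹ := by
    apply eq_inv_of_mul_eq_one_left
    rw [← pow_succ, Nat.sub_add_cancel hN1, hrN]
  have hσ2 : ∀ x, σ (σ x) = x := by
    intro x
    have h1 : σ.comp σ = AlgHom.id F _ := by
      apply AdjoinRoot.algHom_ext
      rw [AlgHom.comp_apply, hσ, hinv, map_inv₀, hσ, hinv, inv_inv]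
      rfl
    exact DFunLike.congr_fun h1 x
  have hσne : σ (AdjoinRoot.root f) ≠ AdjoinRoot.root f := by
    rw [hσ, hinv]
    intro h1
    apply hr1
    have h2 : AdjoinRoot.root f ^ 2 = 1 := by
      rw [pow_two]
      nth_rewrite 1 [← h1]
      exact inv_mul_cancel₀ hr0
    have hodd : Odd N := ((Fact.out : p.Prime).odd_of_ne_two hp2).pow
    obtain ⟨j, hj⟩ := hodd
    rw [hj, pow_succ, pow_mul, h2, one_pow, one_mul] at hrN
    exact hrN
  have hcK : algebraMap F (AdjoinRoot f) c ≠ 0 := by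
    rw [Ne, map_eq_zero]
    exact hc
  obtain ⟨k, hk⟩ := exists_norm (σ : AdjoinRoot f →+* AdjoinRoot f) hσ2 ⟨_, hσne⟩
    (c := algebraMap F (AdjoinRoot f) c) (σ.commutes c) hcK
  obtain ⟨g, rfl⟩ := AdjoinRoot.mk_surjective k
  have hgc : aeval TD (expand F (N - 1) g * g) = algebraMap F _ c := by
    have h1 : AdjoinRoot.mk f (expand F (N - 1) g * g - C c) = 0 := by
      rw [map_sub, map_mul, ← hσmk, mul_comm]
      change AdjoinRoot.mk f g * (σ : AdjoinRoot f →+* AdjoinRoot f) (AdjoinRoot.mk f g) - _ = 0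
      rw [hk, AdjoinRoot.mk_C]
      exact sub_self _
    obtain ⟨r, hr⟩ := AdjoinRoot.mk_eq_zero.1 h1
    have h2 : aeval TD (expand F (N - 1) g * g - C c) = 0 := by rw [hr, map_mul, minpoly.aeval, zero_mul]
    rw [map_sub, aeval_C, sub_eq_zero] at h2
    exact h2
  obtain ⟨y, hy⟩ := LinearMap.exists_extend (D.subtype ∘ₗ aeval TD g)
  have hyD : ∀ (v : V) (hv : v ∈ D), y v = (aeval TD g ⟨v, hv⟩ : D) := fun v hv =>
    DFunLike.congr_fun hy (⟨v, hv⟩ : D)
  have hym : ∀ v ∈ D, y v ∈ D := fun v hv => by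
    rw [hyD v hv]
    exact Subtype.property _
  have hyP : ∀ x ∈ P, ∀ v ∈ D, y (x v) = x (y v) := by
    intro x hx v hv
    rw [hyD v hv, hyD _ (hi.inv x hx v hv)]
    exact hcoeP g x hx ⟨v, hv⟩
  have hpol : ∀ u ∈ D, ∀ v ∈ D, polar Q (y u) (y v) = c * polar Q u v := by
    intro u hu v hv
    rw [hyD u hu, hyD v hv, hadj g, ← expand_aeval, ← Module.End.mul_apply, ← map_mul, hgc,
      Module.algebraMap_end_apply, Submodule.coe_smul, polar_smul_right, smul_eq_mul]
  -- the quadratic form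
  let K₀ : Submodule F V :=
    { carrier := {v | v ∈ D ∧ Q (y v) = c * Q v}
      add_mem' := by
        rintro a b ⟨ha, ha'⟩ ⟨hb, hb'⟩
        refine ⟨D.add_mem ha hb, ?_⟩
        rw [map_add, Q_add, Q_add, ha', hb', hpol a ha b hb]
        ring
      zero_mem' := ⟨D.zero_mem, by rw [map_zero, QuadraticMap.map_zero, mul_zero]⟩
      smul_mem' := by
        rintro a x ⟨hx, hx'⟩
        refine ⟨D.smul_mem a hx, ?_⟩
        rw [map_smul, QuadraticMap.map_smul, QuadraticMap.map_smul, hx', smul_eq_mul, smul_eq_mul]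
        ring }
  have hK₀i : Inv P K₀ := by
    rintro x hx v ⟨hv, hv'⟩
    exact ⟨hi.inv x hx v hv, by rw [hyP x hx v hv, hPO hx, hPO hx, hv']⟩
  have hK₀ : K₀ = D := by
    rcases hi.min K₀ (fun v hv => hv.1) hK₀i with h1 | h1
    · exfalso
      apply hi.ne
      rw [eq_bot_iff]
      intro v hv
      refine hfix v hv fun x hx => ?_
      have hxv := hi.inv x hx v hv
      have h2 : x v - v ∈ K₀ := by
        refine ⟨D.sub_mem hxv hv, ?_⟩
        have e : x v - v = x v + (-1 : F) • v := by rw [neg_one_smul, sub_eq_add_neg]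
        have h3 := hpol (x v) hxv v hv
        have h4 := hpol v hv v hv
        rw [polar_self', polar_self'] at h4
        rw [e, map_add, map_smul, Q_add, Q_add, QuadraticMap.map_smul, QuadraticMap.map_smul, hyP x hx v hv, hPO hx,
          hPO hx, polar_smul_right, polar_smul_right, ← hyP x hx v hv, h3]
        simp only [smul_eq_mul]
        linear_combination h4
      rw [h1] at h2
      exact sub_eq_zero.1 h2
    · exact h1
  refine ⟨y, fun v hv => ⟨hym v hv, ?_⟩, hyP⟩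
  rw [← hK₀] at hv
  exact hv.2

/-- similitudes of an invariant subspace which commute with `P` -/
def HasSim (Q : QuadraticForm F V) (P : Subgroup (V ≃ₗ[F] V)) (c : F) (W : Submodule F V) : Prop :=
  ∃ z : V →ₗ[F] V, (∀ v ∈ W, z v ∈ W ∧ Q (z v) = c * Q v) ∧ ∀ g ∈ P, ∀ v ∈ W, z (g v) = g (z v)

/-- `z₁ + z₂` -/
theorem exists_glue {W₁ W₂ : Submodule F V} (hd : Disjoint W₁ W₂) (z₁ z₂ : V →ₗ[F] V) :
    ∃ z : V →ₗ[F] V, ∀ a ∈ W₁, ∀ b ∈ W₂, z (a + b) = z₁ a + z₂ b := by
  obtain ⟨W', hW', hc⟩ := hd.exists_isCompl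
  refine ⟨z₁ ∘ₗ W'.projection W₂ hc + z₂ ∘ₗ W₂.projection W' hc.symm, fun a ha b hb => ?_⟩
  have e1 : W'.projection W₂ hc (a + b) = a := by
    rw [map_add, Submodule.projection_apply_of_mem_left hc (hW' ha), (Submodule.projection_apply_eq_zero_iff hc).2 hb,
      add_zero]
  have e2 : W₂.projection W' hc.symm (a + b) = b := by
    rw [map_add, Submodule.projection_apply_of_mem_left hc.symm hb,
      (Submodule.projection_apply_eq_zero_iff hc.symm).2 (hW' ha), zero_add]
  rw [LinearMap.add_apply, LinearMap.comp_apply, LinearMap.comp_apply, e1, e2]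

theorem polar_sim {z : V →ₗ[F] V} {c : F} {W : Submodule F V} (h : ∀ v ∈ W, Q (z v) = c * Q v) {u v : V} (hu : u ∈ W)
    (hv : v ∈ W) : polar Q (z u) (z v) = c * polar Q u v := by
  rw [polar, polar, ← map_add, h _ (W.add_mem hu hv), h u hu, h v hv]
  ring

theorem HasSim.sup {P : Subgroup (V ≃ₗ[F] V)} {c : F} {W₁ W₂ : Submodule F V} (hi₁ : Inv P W₁) (hi₂ : Inv P W₂)
    (h₁ : HasSim Q P c W₁) (h₂ : HasSim Q P c W₂) (ho : ∀ u ∈ W₁, ∀ v ∈ W₂, polar Q u v = 0) (hd : Disjoint W₁ W₂) :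
    HasSim Q P c (W₁ ⊔ W₂) := by
  obtain ⟨z₁, hz₁, hg₁⟩ := h₁
  obtain ⟨z₂, hz₂, hg₂⟩ := h₂
  obtain ⟨z, hz⟩ := exists_glue hd z₁ z₂
  refine ⟨z, fun v hv => ?_, fun g hg v hv => ?_⟩
  · obtain ⟨a, ha, b, hb, rfl⟩ := Submodule.mem_sup.1 hv
    rw [hz a ha b hb]
    refine ⟨Submodule.add_mem_sup (hz₁ a ha).1 (hz₂ b hb).1, ?_⟩
    rw [Q_add, Q_add, (hz₁ a ha).2, (hz₂ b hb).2, ho _ (hz₁ a ha).1 _ (hz₂ b hb).1, ho a ha b hb]
    ring
  · obtain ⟨a, ha, b, hb, rfl⟩ := Submodule.mem_sup.1 hv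
    rw [map_add g a b, hz _ (hi₁ g hg a ha) _ (hi₂ g hg b hb), hz a ha b hb, map_add, hg₁ g hg a ha, hg₂ g hg b hb]

theorem HasSim.two {P : Subgroup (V ≃ₗ[F] V)} (c : F) {M N : Submodule F V} (hM : Inv P M) (hN : Inv P N)
    (hQM : ∀ m ∈ M, Q m = 0) (hQN : ∀ n ∈ N, Q n = 0) (hd : Disjoint M N) : HasSim Q P c (M ⊔ N) := by
  obtain ⟨z, hz⟩ := exists_glue hd (c • LinearMap.id) LinearMap.id
  have hz' : ∀ a ∈ M, ∀ b ∈ N, z (a + b) = c • a + b := hz
  refine ⟨z, fun v hv => ?_, fun g hg v hv => ?_⟩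
  · obtain ⟨a, ha, b, hb, rfl⟩ := Submodule.mem_sup.1 hv
    rw [hz' a ha b hb]
    refine ⟨Submodule.add_mem_sup (M.smul_mem c ha) hb, ?_⟩
    rw [Q_add, Q_add, QuadraticMap.map_smul, hQM a ha, hQN b hb, polar_smul_left]
    simp only [smul_eq_mul]
    ring
  · obtain ⟨a, ha, b, hb, rfl⟩ := Submodule.mem_sup.1 hv
    rw [map_add g a b, hz' _ (hM g hg a ha) _ (hN g hg b hb), hz' a ha b hb, map_add, map_smul]

/-- all of `[V, P]` -/
theorem hasSim_of_le [Finite F] [Finite V] [FiniteDimensional F V] (hQ : Nondeg Q) {p : ℕ} [Fact p.Prime] (hp2 : p ≠ 2)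
    (hpF : (p : F) ≠ 0) {P : Subgroup (V ≃ₗ[F] V)} (hP : IsPGroup p P) (hPO : P ≤ O Q) {c : F} (hc : c ≠ 0)
    {W : Submodule F V} (hW : Inv P W) (hn : ND (fun u v => polar Q u v) W) (hfix : ∀ u ∈ W, u ∈ fixP P → u = 0) :
    HasSim Q P c W := by
  induction hd : finrank F W using Nat.strong_induction_on generalizing W with
  | _ d ih =>
    have h := splF hQ
    by_cases h0 : W = ⊥
    · refine ⟨0, fun v hv => ?_, fun g hg v hv => ?_⟩
      · rw [h0] at hv ⊢
        have hv' : v = 0 := hv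
        rw [hv', map_zero, QuadraticMap.map_zero, mul_zero]
        exact ⟨Submodule.zero_mem _, rfl⟩
      · rw [LinearMap.zero_apply, LinearMap.zero_apply, map_zero]
    obtain ⟨D, hDW, hD⟩ := exists_minS hW hn h0
    have hfD : ∀ u ∈ D, u ∈ fixP P → u = 0 := fun u hu => hfix u (hDW hu)
    have hsD : HasSim Q P c D := by
      rcases hD.irr_or_two hpF h hPO hP with h1 | ⟨M, N, h1⟩
      · exact exists_sim_irr hQ hp2 hpF hP hPO h1 hD.nd hfD hc
      · have hMD : M ≤ D := h1.sup ▸ le_sup_left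
        have hND : N ≤ D := h1.sup ▸ le_sup_right
        rw [← h1.sup]
        exact HasSim.two c h1.irrM.inv h1.irrN.inv
          (sing_of_irr hPO h1.irrM h1.tiM fun u hu => hfD u (hMD hu))
          (sing_of_irr hPO h1.irrN h1.tiN fun u hu => hfD u (hND hu)) (disjoint_iff.2 h1.inf)
    have hcp := h.isCompl_perp hD.nd
    have hmod : D ⊔ (h.perp D ⊓ W) = W := by
      rw [← sup_inf_assoc_of_le _ hDW, hcp.sup_eq_top, top_inf_eq]
    have hlt : h.perp D ⊓ W < W := by
      refine lt_of_le_of_ne inf_le_right fun h1 => hD.ne ?_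
      have h2 : D ≤ h.perp D := hDW.trans (h1.ge.trans inf_le_left)
      rw [eq_bot_iff, ← hcp.inf_eq_bot]
      exact le_inf le_rfl h2
    have hi2 : Inv P (h.perp D ⊓ W) := (h.inv_perp hPO hD.inv).inf hW
    have hs2 := ih (finrank F (h.perp D ⊓ W : Submodule F V))
      (by rw [← hd]; exact Submodule.finrank_lt_finrank_of_lt hlt) hi2
      (by
        intro v hv hv'
        refine hn v hv.2 fun w hw => ?_
        rw [← hmod] at hw
        obtain ⟨a, ha, b, hb, rfl⟩ := Submodule.mem_sup.1 hw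
        show polar Q v (a + b) = 0
        rw [polar_add_right, show polar Q v a = 0 from hv.1 a ha, show polar Q v b = 0 from hv' b hb, add_zero])
      (fun u hu => hfix u hu.2) rfl
    have hs3 := hsD.sup hD.inv hi2 hs2 (fun u hu v hv => h.refl _ _ (hv.1 u hu)) (by
      rw [disjoint_iff, eq_bot_iff, ← hcp.inf_eq_bot]
      exact inf_le_inf_left _ inf_le_left)
    rwa [hmod] at hs3

/-- **(U2)**: similitudes of `V` -/
theorem exists_sim_all [Finite F] [Finite V] [FiniteDimensional F V] (hQ : Nondeg Q) {p : ℕ} [Fact p.Prime]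
    (hp2 : p ≠ 2) (hpF : (p : F) ≠ 0) {P : Subgroup (V ≃ₗ[F] V)} (hP : IsPGroup p P) (hPO : P ≤ O Q) {c : F}
    (hc : c ≠ 0) (L : V ≃ₗ[F] V) (hL : ∀ v, Q (L v) = c * Q v) (hL0 : ∀ v ∈ fixP P, L v ∈ fixP P) :
    ∃ z : V ≃ₗ[F] V, (∀ v, Q (z v) = c * Q v) ∧ ∀ g ∈ P, ∀ v, z (g v) = g (z v) := by
  have h := splF hQ
  have nd := nd_fix hpF h hPO hP
  have hcp := h.isCompl_perp nd
  have hs1 : HasSim Q P c (fixP P) :=
    ⟨(L : V →ₗ[F] V), fun v hv => ⟨hL0 v hv, hL v⟩, fun g hg v hv => by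
      rw [hv g hg]
      exact (hL0 v hv g hg).symm⟩
  have hip : Inv P (h.perp (fixP P)) := h.inv_perp hPO (inv_fixP P)
  have hs2 : HasSim Q P c (h.perp (fixP P)) := hasSim_of_le hQ hp2 hpF hP hPO hc hip (h.nd_perp nd) (by
    intro u hu hu'
    have h1 : u ∈ fixP P ⊓ h.perp (fixP P) := ⟨hu', hu⟩
    rw [hcp.inf_eq_bot] at h1
    exact h1)
  obtain ⟨z, hz1, hz2⟩ := hs1.sup (inv_fixP P) hip hs2 (fun u hu v hv => h.refl _ _ (hv u hu)) hcp.disjoint
  rw [hcp.sup_eq_top] at hz1 hz2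
  have hinj : Function.Injective z := by
    rw [← LinearMap.ker_eq_bot, LinearMap.ker_eq_bot']
    intro v hv
    refine hQ v fun w => ?_
    have h1 := polar_sim (fun v hv => (hz1 v hv).2) (Submodule.mem_top (x := v)) (Submodule.mem_top (x := w))
    rw [hv, polar_zero_left] at h1
    exact (mul_eq_zero.1 h1.symm).resolve_left hc
  refine ⟨LinearEquiv.ofInjectiveEndo z hinj, fun v => ?_, fun g hg v => ?_⟩
  · rw [LinearEquiv.coe_ofInjectiveEndo]
    exact (hz1 v Submodule.mem_top).2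
  · rw [LinearEquiv.coe_ofInjectiveEndo]
    exact hz2 g hg v Submodule.mem_top

section main

variable {p : ℕ} [Fact p.Prime]

/-- **every similitude** -/
theorem sim_mem' [Finite F] [Finite V] [FiniteDimensional F V] (hG : Good Q) (hp2 : p ≠ 2) (hpF : (p : F) ≠ 0)
    (T : Sylow p ↥(E Q))
    (hsq : ∀ w : V, Q w ≠ 0 → ∃ v ∈ fixP (TL (T : Subgroup ↥(E Q))), ∃ s : F, Q v ≠ 0 ∧ Q w = s * s * Q v)
    {M : Gam Q} {c : F} (hM : IsSS Q (RingEquiv.refl F) c M.1) : out Q M ∈ RR (T : Subgroup ↥(E Q)) := by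
  have hfinE : Finite (V ≃ₗ[F] V) := Finite.of_injective (fun g => g.toEquiv)
    fun g h e => LinearEquiv.toEquiv_injective e
  obtain ⟨h, hh⟩ := MulAction.exists_smul_eq ↥(E Q) (conjE Q M • T) T
  -- `M' = h M` normalises `T`
  have hM' := (isSS_ofO (Q := Q) ⟨h.1, E_le_O h.2⟩).mul hM
  set M' : Gam Q := ofO Q ⟨h.1, E_le_O h.2⟩ * M with hM'def
  have e1 : (RingEquiv.refl F).trans (RingEquiv.refl F) = RingEquiv.refl F := rfl
  have e2 : (1 : F) * (RingEquiv.refl F) c = c := one_mul c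
  rw [e1, e2] at hM'
  change IsSS Q (RingEquiv.refl F) c M'.1 at hM'
  have hnorm : ∀ t ∈ (T : Subgroup ↥(E Q)), ∃ t' ∈ (T : Subgroup ↥(E Q)), ∀ v, t.1 (M'.1 v) = M'.1 (t'.1 v) := by
    intro t ht
    have ht' : t ∈ ((h • (conjE Q M • T) : Sylow p ↥(E Q)) : Subgroup ↥(E Q)) := by rw [hh]; exact ht
    obtain ⟨t1, ht1, rfl⟩ := ht'
    obtain ⟨t2, ht2, rfl⟩ := ht1
    refine ⟨t2, ht2, fun v => ?_⟩
    show (h.1 * (conjE Q M t2).1 * h.1⁻¹) (h.1 (M.1 v)) = h.1 (M.1 (t2.1 v))
    rw [coe_conjE]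
    have e3 : (h.1 * conjLin M t2.1 * h.1⁻¹) (h.1 (M.1 v)) = h.1 (conjLin M t2.1 (h.1⁻¹ (h.1 (M.1 v)))) := rfl
    have e4 : h.1⁻¹ (h.1 (M.1 v)) = M.1 v := LinearEquiv.symm_apply_apply h.1 (M.1 v)
    rw [e3, e4, conjLin_apply']
  obtain ⟨z, hz1, hz2⟩ := exists_sim_all hG.1 hp2 hpF (T.isPGroup'.map (E Q).subtype) (TL_le_O (T : Subgroup ↥(E Q)))
    hM'.ne (linS hM') (fun v => hM'.form v) (by
    intro v hv g hg
    obtain ⟨t, ht, rfl⟩ := hg
    obtain ⟨t', ht', h1⟩ := hnorm t ht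
    show t.1 (M'.1 v) = M'.1 v
    rw [h1 v]
    congr 1
    exact hv t'.1 ⟨t', ht', rfl⟩)
  have hzS : IsSS Q (RingEquiv.refl F) c z.toEquiv :=
    ⟨hM'.ne, fun u v => map_add z u v, fun a v => map_smul z a v, fun v => hz1 v⟩
  let zM : Gam Q := ⟨z.toEquiv, _, _, hzS⟩
  have h1 : out Q zM ∈ RR (T : Subgroup ↥(E Q)) := mem_RR_of_comm _ fun t ht v => hz2 t ht v
  have h2 := hM'.mul hzS.inv
  have e3 : (RingEquiv.refl F).symm.trans (RingEquiv.refl F) = RingEquiv.refl F := rfl
  have e4 : c * (RingEquiv.refl F) ((RingEquiv.refl F).symm c⁻¹) = 1 := mul_inv_cancel₀ hM'.ne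
  rw [e3, e4] at h2
  obtain ⟨g, hg⟩ := exists_ofO (M := M' * zM⁻¹) h2
  have h3 := ofO_mem (T : Subgroup ↥(E Q)) hG hsq g
  have h4 := ofO_mem (T : Subgroup ↥(E Q)) hG hsq ⟨h.1, E_le_O h.2⟩
  have h5 : M = (ofO Q ⟨h.1, E_le_O h.2⟩)⁻¹ * (ofO Q g * zM) := by
    rw [hg, inv_mul_cancel_right, hM'def, inv_mul_cancel_left]
  rw [h5, map_mul, map_mul, map_inv]
  exact mul_mem (inv_mem h4) (mul_mem h3 h1)

/-- **(U3)**: similitudes act on `T` as elements of `P Q`. -/
theorem act_of_sim' [Finite F] [Finite V] [FiniteDimensional F V] (hG : Good Q) (hp2 : p ≠ 2) (hpF : (p : F) ≠ 0)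
    (T : Sylow p ↥(E Q))
    (hsq : ∀ w : V, Q w ≠ 0 → ∃ v ∈ fixP (TL (T : Subgroup ↥(E Q))), ∃ s : F, Q v ≠ 0 ∧ Q w = s * s * Q v)
    (M : Gam Q) (hM : sg hG M = 1) : ∃ s : P Q, ∀ x ∈ TP (T : Subgroup ↥(E Q)), Psi Q M x = s * x * s⁻¹ := by
  obtain ⟨σ, c, hMc⟩ := M.2
  have hσ : σ = RingEquiv.refl F := by rw [← sg_eq hG hMc, hM]; rfl
  subst hσ
  exact exists_of_mem_RR _ (sim_mem' hG hp2 hpF T hsq hMc)

end main

end Cfsg.Agent.H563.XZ
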